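/-
GW: a lower bound for the degrees of characters whose values on `t U` are constant on cosets of `Z ≤ U'`.
-/
import Cfsg.Agent.Char.Gallagher
import Cfsg.Agent.Char.FrobSchurOdd
import Cfsg.Agent.Char.Faithful
import Cfsg.Agent.Inv.SymSq
import Cfsg.Agent.GW.Basic3

set_option autoImplicit false

open scoped ComplexConjugate Pointwise
open Cfsg CL.Char CL.Odd CL.Grp Subgroup

namespace CL.GW.CH2D

universe u

section Odd

variable {U : Type*} [Group U] [Fintype U]

theorem sub_sub_char {η θ θ' : U → ℂ} (hη : IsCharacter U η) (hθ : IsIrrCharacter U θ)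
    (hθ' : IsIrrCharacter U θ') (hne : θ ≠ θ') (h1 : classInner η θ ≠ 0) (h2 : classInner η θ' ≠ 0) :
    IsCharacter U (η - θ - θ') :=
  (hη.sub_of_classInner_ne_zero hθ h1).sub_of_classInner_ne_zero hθ' (by
    rwa [classInner_sub_left, hθ.classInner_eq_ite hθ', if_neg hne, sub_zero])

/-- a real character of a group of odd order without the trivial constituent has even degree. -/
theorem even_deg (hU : Odd (Nat.card U)) (n : ℕ) : ∀ η : U → ℂ, IsCharacter U η → (∀ g, conj (η g) = η g) →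
    classInner η (fun _ => 1) = 0 → η 1 = n → Even n := by
  induction n using Nat.strong_induction_on with
  | _ n ih =>
  intro η hη hr h0 h1
  by_cases e : η = 0
  · subst e
    have : n = 0 := Nat.cast_eq_zero.1 (h1.symm : (n : ℂ) = 0)
    simp [this]
  obtain ⟨θ, hθ, h2⟩ := hη.exists_irr_classInner_ne_zero e
  have h3 : θ ≠ fun _ => 1 := fun e => h2 (e ▸ h0)
  have h4 := conj_ne_self_of_odd hU hθ h3
  have h5 : classInner η (fun g => conj (θ g)) ≠ 0 := by
    rw [← funext hr, classInner_conj_conj]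
    exact fun e => h2 (by rw [← conj_classInner, e, map_zero])
  have h6 := sub_sub_char hη hθ hθ.conj h4.symm h2 h5
  have h7 : (η - θ - fun g => conj (θ g)) 1 = n - 2 * charDegree θ := by
    simp only [Pi.sub_apply, h1, ← hθ.cast_charDegree, map_natCast]; ring
  have h8 := h6.cast_charDegree
  rw [h7] at h8
  have h9 : n = charDegree (η - θ - fun g => conj (θ g)) + 2 * charDegree θ := by
    have : (n : ℂ) = charDegree (η - θ - fun g => conj (θ g)) + 2 * charDegree θ := by rw [h8]; ring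
    exact_mod_cast this
  have h10 := hθ.charDegree_pos
  have := ih _ (by omega) _ h6 (fun g => by simp only [Pi.sub_apply, map_sub, hr, Complex.conj_conj]; ring) (by
    rw [classInner_sub_left, classInner_sub_left, h0, hθ.classInner_eq_ite isIrrCharacter_one, if_neg h3,
      hθ.conj.classInner_eq_ite isIrrCharacter_one, if_neg, sub_zero, sub_zero]
    exact fun e => h3 (funext fun g => by simpa using congrArg conj (congrFun e g))) h6.cast_charDegree.symm
  rw [h9]
  exact this.add (even_two_mul _)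

theorem inner_eq_zero {Z : Subgroup U} [Z.Normal] {φ ψ : U → ℂ} (hφ : Z ≤ charKer φ) (hψ : IsIrrCharacter U ψ)
    (h : ¬ Z ≤ charKer ψ) : classInner φ ψ = 0 := by
  have := Fintype.ofFinite Z
  rw [← classInner_cosetAvg_right ψ hφ, cosetAvg_irr_of_not_le hψ h, classInner_zero_right]

/-- The degree lemma for a group of odd order. -/
theorem deg_pair (hU : Odd (Nat.card U)) {Z : Subgroup U} [Z.Normal] (hZ : Z ≤ commutator U) (τ : U ≃* U)
    (hτ : ∀ z ∈ Z, τ z = z⁻¹) {α β : U → ℂ} (hα : IsCharacter U α) (hβ : IsCharacter U β)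
    (hατ : ∀ u, α (τ u) = α u) (h1 : Z ≤ charKer (α - β)) (h2 : ¬ Z ≤ charKer (α + β)) :
    12 + ‖α 1 - β 1‖ ≤ (charDegree α + charDegree β : ℝ) := by
  obtain ⟨z, hz, hn⟩ := SetLike.not_le_iff_exists.1 h2
  rw [(hα.add hβ).mem_charKer_iff_forall] at hn
  push Not at hn
  obtain ⟨ψ, hψ, h3, h4⟩ := hn
  have h5 : ¬ Z ≤ charKer ψ := fun h => h4 (h hz)
  have hψ' : IsIrrCharacter U fun u => ψ (τ u) := hψ.comp_of_surjective τ.toMonoidHom τ.surjective
  have h5' : ¬ Z ≤ charKer fun u => ψ (τ u) := fun h => h5 fun y hy => by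
    have := hψ'.mem_charKer.1 (h (inv_mem hy))
    rw [hτ _ (inv_mem hy), inv_inv, map_one] at this
    exact hψ.mem_charKer.2 this
  have e1 := inner_eq_zero h1 hψ h5
  have e2 := inner_eq_zero h1 hψ' h5'
  rw [classInner_sub_left, sub_eq_zero] at e1 e2
  have a1 : classInner α ψ ≠ 0 := fun e => h3 (by rw [classInner_add_left, ← e1, e, add_zero])
  have a2 : classInner α (fun u => ψ (τ u)) ≠ 0 := by
    rwa [← funext hατ, classInner_comp_mulEquiv τ α ψ]
  have hodd : Odd (charDegree ψ) := hU.of_dvd_nat hψ.charDegree_dvd_card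
  have hne : ψ ≠ fun u => ψ (τ u) := fun e => by
    have := Fintype.ofFinite Z
    refine Nat.not_even_iff_odd.2 hodd (even_deg (odd_card_of_le (K := ⊤) (by simpa using hU) le_top) _
      (fun y : Z => ψ y) (hψ.isCharacter.comp Z.subtype) (fun y => ?_) ?_ hψ.cast_charDegree.symm)
    · rw [hψ.conj_apply, ← hτ _ y.2]; exact (congrFun e _).symm
    · rw [← cosetAvg_one, cosetAvg_irr_of_not_le hψ h5]; rfl
  have h3 : 3 ≤ charDegree ψ := by
    have : charDegree ψ ≠ 1 := fun e => h5 (hZ.trans (hψ.one_eq_one_iff.1 (by rw [← hψ.cast_charDegree, e]; simp)))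
    obtain ⟨k, hk⟩ := hodd
    omega
  have c1 := (sub_sub_char hα hψ hψ' hne a1 a2).cast_charDegree
  have c2 := (sub_sub_char hβ hψ hψ' hne (e1 ▸ a1) (e2 ▸ a2)).cast_charDegree
  simp only [Pi.sub_apply, map_one] at c1 c2
  rw [← hψ.cast_charDegree] at c1 c2
  rw [← hα.cast_charDegree] at c1 ⊢
  rw [← hβ.cast_charDegree] at c2 ⊢
  generalize charDegree (α - ψ - fun u => ψ (τ u)) = a at c1
  generalize charDegree (β - ψ - fun u => ψ (τ u)) = b at c2
  have d1 : (a : ℝ) = charDegree α - charDegree ψ - charDegree ψ := by exact_mod_cast c1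
  have d2 : (b : ℝ) = charDegree β - charDegree ψ - charDegree ψ := by exact_mod_cast c2
  have d3 : (3 : ℝ) ≤ charDegree ψ := by exact_mod_cast h3
  have d4 : ‖(charDegree α : ℂ) - charDegree β‖ = |(charDegree α : ℝ) - charDegree β| := by
    rw [← Real.norm_eq_abs, ← Complex.norm_real]; simp
  have d5 : (0 : ℝ) ≤ a := a.cast_nonneg
  have d6 : (0 : ℝ) ≤ b := b.cast_nonneg
  rw [d4]
  rcases abs_cases ((charDegree α : ℝ) - charDegree β) with h | h <;> linarith [h.1]

end Odd

variable {G : Type u} [Group G] [Finite G]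

theorem isCharacter_half {χ : G → ℂ} (hχ : IsCharacter G χ) {t : G} (ht : t * t = 1) {U : Subgroup G}
    (hU : U ≤ C1[t]) {c : ℂ} (hc : c * c = 1) : IsCharacter U fun u => (χ u + c * χ (t * u)) / 2 := by
  obtain ⟨n, ρ, rfl⟩ := hχ
  have key := Inv.isCharacter_trace_mul_proj (ρ.comp U.subtype) ((2 : ℂ)⁻¹ • (1 + c • ρ t)) (by
    simp only [smul_mul_smul_comm, add_mul, mul_add, one_mul, mul_one, ← map_mul, ht, hc, map_one]
    module) fun g => by
      simp only [mul_smul_comm, smul_mul_assoc, mul_add, add_mul, mul_one, one_mul, MonoidHom.comp_apply,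
        ← map_mul, coe_subtype, mem_C1.1 (hU g.2)]
  convert key using 2 with g
  simp only [mul_smul_comm, mul_add, mul_one, MonoidHom.comp_apply, ← map_mul, coe_subtype, mem_C1.1 (hU g.2),
    map_smul, map_add, Representation.character, smul_eq_mul]
  ring

/-- The degree lemma.  `χ` is a character of `G` which is not trivial on `Z ≤ U'`, and whose values on `t U`
are constant on the cosets of `Z`. -/
theorem deg_ge {χ : G → ℂ} (hχ : IsCharacter G χ) {t a : G} (ht : t * t = 1) {U Z : Subgroup G}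
    (hU : U ≤ C1[t]) (ho : Odd (Nat.card U)) (hZ : Z ≤ ⁅U, U⁆) (hn : U ≤ N[Z]) (hat : a * t = t * a)
    (ha : a ∈ (N[U] : Subgroup G)) (hi : Inverts a Z) (h1 : ∀ z ∈ Z, ∀ u ∈ U, χ (t * (z * u)) = χ (t * u))
    (h2 : ¬ Z ≤ charKer χ) : 12 + ‖χ t‖ ≤ (charDegree χ : ℝ) := by
  have := Fintype.ofFinite U
  have := normal_subgroupOf_of_le_normalizer' hn
  have hZU : Z ≤ U := hZ.trans (commutator_le_self U)
  have hα := isCharacter_half hχ ht hU (c := 1) (by ring)
  have hβ := isCharacter_half hχ ht hU (c := -1) (by ring)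
  have hcl := hχ.isClassFunction
  have key := deg_pair ho (Z := Z.subgroupOf U) ?_ (U.normalizerMonoidHom ⟨a, ha⟩) ?_ hα hβ ?_ ?_ ?_
  · have e1 := hα.cast_charDegree
    have e2 := hβ.cast_charDegree
    have e3 := hχ.cast_charDegree
    simp only [OneMemClass.coe_one, mul_one] at e1 e2 key
    generalize charDegree (fun u : U => (χ u + 1 * χ (t * u)) / 2) = x at e1 key
    generalize charDegree (fun u : U => (χ u + -1 * χ (t * u)) / 2) = y at e2 key
    have e4 : (charDegree χ : ℂ) = x + y := by rw [e1, e2, e3]; ring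
    have e5 : (charDegree χ : ℝ) = x + y := by exact_mod_cast e4
    rw [e5]
    convert key using 3
    ring
  · intro z hz
    have h3 := hZ hz
    rw [← U.map_subtype_commutator] at h3
    obtain ⟨y, hy, e⟩ := h3
    rwa [← Subtype.ext e]
  · exact fun z hz => Subtype.ext (hi z hz)
  · intro u
    change (χ (a * u * a⁻¹) + 1 * χ (t * (a * u * a⁻¹))) / 2 = _
    rw [hcl, ← hcl (t * u) a, ← mul_assoc a, hat]
    simp only [mul_assoc]
  · intro z hz u
    simp only [Pi.sub_apply, coe_mul, h1 z hz u u.2]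
    ring
  · intro h
    refine h2 fun z hz => hχ.mem_charKer.2 ?_
    have := apply_eq_one_of_mem_charKer (h (show (⟨z, hZU hz⟩ : U) ∈ Z.subgroupOf U from hz))
    simp only [Pi.add_apply, OneMemClass.coe_one] at this
    linear_combination this

/-- The degree lemma in a simple group. -/
theorem deg_ge_of_simple [IsSimpleGroup G] (σ : Setup G) {χ : G → ℂ} (hχ : IsIrrCharacter G χ)
    (h0 : χ ≠ fun _ => 1) {Z : Subgroup G} {a : G} (hZ0 : Z ≠ ⊥) (hZ : Z ≤ ⁅σ.U, σ.U⁆) (hn : σ.U ≤ N[Z])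
    (ha : a ∈ σ.H) (hi : Inverts a Z) (h1 : ∀ z ∈ ⁅σ.U, σ.U⁆, ∀ u ∈ σ.U, χ (σ.t * (z * u)) = χ (σ.t * u)) :
    12 + ‖χ σ.t‖ ≤ (charDegree χ : ℝ) :=
  deg_ge hχ.isCharacter σ.dih.t_sq σ.U_le_H σ.odd_U hZ hn (mem_C1.1 ha) (σ.H_le_N_U ha) hi
    (fun z hz => h1 z (hZ hz)) fun h => hZ0 (le_bot_iff.1 (hχ.charKer_eq_bot_of_simple h0 ▸ h))

end CL.GW.CH2D
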